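import Cfsg.Agent.H142.KKL.B2
import Cfsg.Agent.H613.KS.Props

/-!
# S4577, task B2 (helper142)

`D ∩ N = 1`: a `G`-stable block of the normal subgroup `N` covered by `B` has defect zero (Knörr's theorem S4438).
-/

set_option autoImplicit false

open Cfsg
open Cfsg.Agent.H613.KKL (Cov Inv)

namespace Cfsg.Agent.H142.KS

universe u

/-- **B2**: `D ∩ N = 1`: a `G`-stable covered block of `N` has defect zero (no hypothesis on `D`). -/
theorem B2_gen {G : Type u} [Group G] [Finite G] {M : Ideal AlgInt} (hM : IsPModular 2 M) {B : Set (IrrCharacter G)}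
    (hB : IsPBlock M B) {D : Subgroup G} (hD : IsDefectGroup 2 M B D)
    (N : Subgroup G) [N.Normal] (b : Set (IrrCharacter ↥N)) (hb : IsPBlock M b)
    (hst : ∀ g : G, StabilizesBlock N b g) (hcov : Cov N b B) (hDN : D ⊓ N = ⊥) :
    ∃ ξ : IrrCharacter ↥N, b = {ξ} ∧ Inv N ξ ∧
      (charDegree (ξ : ↥N → ℂ)).factorization 2 = (Nat.card ↥N).factorization 2 := by
  have : Fact (Nat.Prime 2) := ⟨Nat.prime_two⟩
  have hprime : M.IsPrime := hM.2.1.isPrime
  let _ : Fintype G := Fintype.ofFinite G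
  let _ : Fintype ↥N := Fintype.ofFinite ↥N
  obtain ⟨Q', hQ'⟩ := Cfsg.Agent.H592.Defect.exists_defectGroup 2 hM hb
  have hsub : (Q'.map N.subtype).subgroupOf N = Q' := Subgroup.comap_map_eq_self_of_injective N.subtype_injective Q'
  obtain ⟨P, hP, hPN⟩ := Cfsg.Agent.S4438.result 2 M hM N b hb (Q'.map N.subtype) (Subgroup.map_subtype_le _)
    (by rw [hsub]; exact hQ') B hB hcov
  obtain ⟨t, ht⟩ := Cfsg.Agent.H644.exists_conj_of_isDefectGroup hM hB hD hP
  have hQ1 : Q'.map N.subtype = ⊥ := by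
    rw [← hPN, eq_bot_iff]
    intro x hx
    obtain ⟨hxP, hxN⟩ := hx
    rw [← ht] at hxP
    obtain ⟨d, hd, rfl⟩ := hxP
    have hdx : t * d * t⁻¹ ∈ N := hxN
    have hdN : d ∈ N := by
      have h1 := Subgroup.Normal.conj_mem inferInstance (t * d * t⁻¹) hdx t⁻¹
      have e : t⁻¹ * (t * d * t⁻¹) * t⁻¹⁻¹ = d := by group
      rwa [e] at h1
    have h2 : d ∈ D ⊓ N := ⟨hd, hdN⟩
    rw [hDN, Subgroup.mem_bot] at h2
    rw [h2, map_one]
    exact one_mem _
  have hQ2 : Q' = ⊥ := by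
    rw [← hsub, hQ1]
    exact Subgroup.bot_subgroupOf N
  rw [hQ2] at hQ'
  obtain ⟨ξ, hξ, hdeg⟩ := Cfsg.Agent.H142.KKL.singleton_of_bot hM hb hQ'
  refine ⟨ξ, hξ, fun g n n' hn => ?_, hdeg⟩
  obtain ⟨-, h1⟩ := hst g
  obtain ⟨χ', hχ', h2⟩ := h1 ξ (by rw [hξ]; rfl)
  rw [hξ, Set.mem_singleton_iff] at hχ'
  subst hχ'
  exact h2 n n' hn

/-- **PB2** -/
theorem B2 : Cfsg.Agent.H613.KS.Props.PB2.{u} := by
  intro G _ _ M hM B hB D hD _ N _ b hb hst hcov hDN
  exact B2_gen hM hB hD N b hb hst hcov hDN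

end Cfsg.Agent.H142.KS
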